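import Cfsg.Agent.H2.SpUnipotent.Identity

/-!
The alternating sum over totally isotropic frames vanishes when the form has a radical.
-/

set_option autoImplicit false

namespace Cfsg.Agent.H2.SpUnipotent

open LinearMap (BilinForm)

variable {F W : Type*} [Field F] [AddCommGroup W] [Module F W]

/-- Totally isotropic frames. -/
abbrev Frame (B : BilinForm F W) (r : ℕ) :=
  {L : (Fin r → F) →ₗ[F] W // Function.Injective L ∧ ∀ x y, B (L x) (L y) = 0}

/-- Split off the first coordinate. -/
def consEquiv (F : Type*) [Field F] (k : ℕ) : (F × (Fin k → F)) ≃ₗ[F] (Fin (k + 1) → F) where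
  toFun p := Fin.cons p.1 p.2
  invFun v := (v 0, Fin.tail v)
  left_inv p := by simp
  right_inv v := by simp
  map_add' p p' := by funext i; refine Fin.cases ?_ (fun j => ?_) i <;> simp
  map_smul' c p := by funext i; refine Fin.cases ?_ (fun j => ?_) i <;> simp

/-- An automorphism moving the first basis vector to a given non-zero vector. -/
theorem exists_equiv_first {k : ℕ} {c : Fin (k + 1) → F} (hc : c ≠ 0) :
    ∃ A : (F × (Fin k → F)) ≃ₗ[F] (Fin (k + 1) → F), A (1, 0) = c := by
  obtain ⟨C, hC⟩ := Submodule.exists_isCompl (Submodule.span F {c})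
  have hd : Module.finrank F C = k := by
    have := Submodule.finrank_add_eq_of_isCompl hC
    rw [finrank_span_singleton hc] at this
    simp at this
    omega
  let b : Fin k → F ≃ₗ[F] F := fun _ => LinearEquiv.refl F F
  let e : (Fin k → F) ≃ₗ[F] C := (Module.finBasisOfFinrankEq F C hd).equivFun.symm
  refine ⟨((LinearEquiv.toSpanNonzeroSingleton F (Fin (k + 1) → F) c hc).prodCongr e).trans
    (Submodule.prodEquivOfIsCompl _ _ hC), ?_⟩
  simp [LinearEquiv.toSpanNonzeroSingleton]

/-- Frames with `z` as image of a given non-zero vector. -/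
theorem card_frame_through [Finite F] {C : Type*} [AddCommGroup C] [Module F C] [Finite C]
    (B : BilinForm F W) (B' : BilinForm F C) (e : (F × C) ≃ₗ[F] W) (he : ∀ p p', B (e p) (e p') = B' p.2 p'.2)
    {k : ℕ} {c : Fin (k + 1) → F} (hc : c ≠ 0) :
    Nat.card {L : Frame B (k + 1) // L.1 c = e (1, 0)} = Nat.card F ^ k * Nat.card (Frame B' k) := by
  classical
  obtain ⟨A, hA⟩ := exists_equiv_first hc
  let T : {L : Frame B (k + 1) // L.1 c = e (1, 0)} ≃ ((Fin k → F) →ₗ[F] F) × Frame B' k :=
    { toFun := fun L =>
        ((LinearMap.fst F F C).comp (e.symm.toLinearMap.comp (L.1.1.comp (A.toLinearMap.comp (LinearMap.inr F F _)))),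
          ⟨(LinearMap.snd F F C).comp (e.symm.toLinearMap.comp (L.1.1.comp (A.toLinearMap.comp (LinearMap.inr F F _)))), by
            refine ⟨fun x y h => ?_, fun x y => ?_⟩
            · set a := (e.symm (L.1.1 (A (0, x)))) with ha
              set b := (e.symm (L.1.1 (A (0, y)))) with hb
              have hab : a.2 = b.2 := h
              have h1 : L.1.1 (A (0, x)) = L.1.1 (A ((a.1 - b.1, y) : F × (Fin k → F))) := by
                apply e.symm.injective
                have hsplit : ((a.1 - b.1, y) : F × (Fin k → F)) = (a.1 - b.1) • ((1, 0) : F × (Fin k → F)) + (0, y) := by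
                  simp
                rw [hsplit, map_add, map_smul, hA, map_add, map_smul, L.2, map_add, map_smul, e.symm_apply_apply, ← ha, ← hb]
                ext <;> simp [hab]
              exact (Prod.ext_iff.mp (A.injective (L.1.2.1 h1))).2
            · simpa [← he] using L.1.2.2 (A (0, x)) (A (0, y))⟩)
      invFun := fun p => ⟨⟨(e.toLinearMap.comp
          ((LinearMap.inl F F C).comp (LinearMap.fst F F (Fin k → F)) +
            (LinearMap.prod p.1 p.2.1).comp (LinearMap.snd F F (Fin k → F)))).comp A.symm.toLinearMap, by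
          refine ⟨fun x y h => ?_, fun x y => ?_⟩
          · obtain ⟨u, rfl⟩ := A.surjective x
            obtain ⟨v, rfl⟩ := A.surjective y
            simp at h
            obtain ⟨h1, h2⟩ := h
            have hs : u.2 = v.2 := p.2.2.1 h2
            simp [hs] at h1
            rw [show u = v from Prod.ext h1 hs]
          · simp [he, p.2.2.2]⟩, by simp [← hA]⟩
      left_inv := fun L => by
        refine Subtype.ext (Subtype.ext (LinearMap.ext fun x => ?_))
        obtain ⟨u, rfl⟩ := A.surjective x
        have hsplit : u = u.1 • ((1, 0) : F × (Fin k → F)) + (0, u.2) := by simp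
        apply e.symm.injective
        conv_rhs => rw [hsplit, map_add, map_smul, hA, map_add, map_smul, L.2, map_add, map_smul, e.symm_apply_apply]
        simp
      right_inv := fun p => by
        refine Prod.ext (LinearMap.ext fun x => ?_) (Subtype.ext (LinearMap.ext fun x => ?_)) <;> simp }
  rw [Nat.card_congr T, Nat.card_prod, Module.natCard_eq_pow_finrank (K := F) (V := (Fin k → F) →ₗ[F] F)]
  simp [Module.finrank_linearMap]

/-- Counting frames along a line in the radical. -/
theorem card_frame_succ [Finite F] {C : Type*} [AddCommGroup C] [Module F C] [Finite C]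
    (B : BilinForm F W) (B' : BilinForm F C) (e : (F × C) ≃ₗ[F] W) (he : ∀ p p', B (e p) (e p') = B' p.2 p'.2)
    (k : ℕ) :
    Nat.card (Frame B (k + 1)) = Nat.card F ^ (k + 1) * Nat.card (Frame B' (k + 1)) +
      (Nat.card F ^ (k + 1) - 1) * (Nat.card F ^ k * Nat.card (Frame B' k)) := by
  classical
  cases nonempty_fintype F
  haveI : Finite W := Finite.of_equiv _ e.toEquiv
  haveI : Finite ((Fin (k + 1) → F) →ₗ[F] W) := Finite.of_injective _ DFunLike.coe_injective
  haveI : Fintype {c : Fin (k + 1) → F // c ≠ 0} := Fintype.ofFinite _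
  let P : Frame B (k + 1) → Prop := fun L => ∃ c, L.1 c = e (1, 0)
  rw [← Nat.card_congr (Equiv.sumCompl P), Nat.card_sum, add_comm]
  congr 1
  · -- frames avoiding the line
    let T : {L : Frame B (k + 1) // ¬ P L} ≃ ((Fin (k + 1) → F) →ₗ[F] F) × Frame B' (k + 1) :=
      { toFun := fun L =>
          ((LinearMap.fst F F C).comp (e.symm.toLinearMap.comp L.1.1),
            ⟨(LinearMap.snd F F C).comp (e.symm.toLinearMap.comp L.1.1), by
              refine ⟨LinearMap.ker_eq_bot.mp (LinearMap.ker_eq_bot'.mpr fun x hx => ?_), fun x y => ?_⟩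
              · by_contra hx0
                have h2 : (e.symm (L.1.1 x)).2 = 0 := hx
                have h1 : (e.symm (L.1.1 x)).1 ≠ 0 := fun h1 => hx0 (L.1.2.1 (by
                  rw [map_zero, ← e.symm.map_eq_zero_iff]; exact Prod.ext h1 h2))
                refine L.2 ⟨(e.symm (L.1.1 x)).1⁻¹ • x, ?_⟩
                apply e.symm.injective
                rw [map_smul, map_smul, e.symm_apply_apply]
                ext <;> simp [h1, h2]
              · simpa [← he] using L.1.2.2 x y⟩)
        invFun := fun p => ⟨⟨e.toLinearMap.comp (LinearMap.prod p.1 p.2.1), by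
            refine ⟨fun x y h => p.2.2.1 (Prod.ext_iff.mp (e.injective h)).2, fun x y => ?_⟩
            simp [he, p.2.2.2]⟩, by
            rintro ⟨c, hc⟩
            obtain ⟨h1, h2⟩ := Prod.ext_iff.mp (e.injective hc)
            have : c = 0 := p.2.2.1 (by simpa using h2)
            subst this
            simp at h1⟩
        left_inv := fun L => Subtype.ext (Subtype.ext (LinearMap.ext fun x => e.symm.injective (by simp)))
        right_inv := fun p => Prod.ext (LinearMap.ext fun x => by simp) (Subtype.ext (LinearMap.ext fun x => by simp)) }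
    rw [Nat.card_congr T, Nat.card_prod, Module.natCard_eq_pow_finrank (K := F) (V := (Fin (k + 1) → F) →ₗ[F] F)]
    simp [Module.finrank_linearMap]
  · -- frames through the line
    have hne : ∀ (L : Frame B (k + 1)) c, L.1 c = e (1, 0) → c ≠ 0 := fun L c h h0 => by
      rw [h0, map_zero] at h
      simpa using e.injective (h.symm.trans (map_zero e).symm)
    let T : {L : Frame B (k + 1) // P L} ≃
        Σ c : {c : Fin (k + 1) → F // c ≠ 0}, {L : Frame B (k + 1) // L.1 c = e (1, 0)} :=
      { toFun := fun L => ⟨⟨L.2.choose, hne _ _ L.2.choose_spec⟩, L.1, L.2.choose_spec⟩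
        invFun := fun s => ⟨s.2.1, s.1.1, s.2.2⟩
        left_inv := fun L => rfl
        right_inv := fun s => by
          have hP : P s.2.1 := ⟨s.1.1, s.2.2⟩
          exact Sigma.subtype_ext (Subtype.ext (s.2.1.2.1 (hP.choose_spec.trans s.2.2.symm))) rfl }
    rw [Nat.card_congr T, Nat.card_sigma,
      Finset.sum_congr rfl fun (c : {c : Fin (k + 1) → F // c ≠ 0}) _ => card_frame_through B B' e he c.2,
      Finset.sum_const, smul_eq_mul, Finset.card_univ, Fintype.card_subtype_compl, Fintype.card_subtype_eq,
      Fintype.card_fun, Fintype.card_fin, Nat.card_eq_fintype_card]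

/-- With a radical vector the alternating sum of frames vanishes. -/
theorem sum_frames_eq_zero [Finite F] [Finite W] (B : BilinForm F W) (hA : B.IsAlt) {z : W} (hz : z ≠ 0)
    (hrad : ∀ w, B z w = 0) {N : ℕ} (hN : Nat.card (Frame B (N + 1)) = 0) :
    ∑ r ∈ Finset.range (N + 1), (Nat.card (Frame B r) : ℚ) / qD (Nat.card F) r = 0 := by
  obtain ⟨C, hC⟩ := Submodule.exists_isCompl (Submodule.span F {z})
  let e : (F × C) ≃ₗ[F] W :=
    ((LinearEquiv.toSpanNonzeroSingleton F W z hz).prodCongr (LinearEquiv.refl F C)).trans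
      (Submodule.prodEquivOfIsCompl _ _ hC)
  have hez : ∀ p : F × C, e p = p.1 • z + p.2 := fun p => by
    simp [e, LinearEquiv.toSpanNonzeroSingleton]
  have he : ∀ p p', B (e p) (e p') = B.restrict C p.2 p'.2 := fun p p' => by
    have h2 : B (p.2 : W) z = 0 := by rw [← hA.neg_eq, hrad, neg_zero]
    simp [hez, hrad, h2]
  have hq : (1 : ℚ) < Nat.card F := by exact_mod_cast Finite.one_lt_card
  set q : ℚ := (Nat.card F : ℚ) with hqdef
  let a : ℕ → ℚ := fun k => q ^ k * (Nat.card (Frame (B.restrict C) k) : ℚ) / qD q k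
  have hstep : ∀ k ∈ Finset.range N, (Nat.card (Frame B (k + 1)) : ℚ) / qD q (k + 1) = a (k + 1) - a k := by
    intro k _
    rw [card_frame_succ B (B.restrict C) e he k]
    simp only [a, qD_succ]
    have h1 := qD_ne hq k
    have h2 := one_sub_pow_ne hq (show k + 1 ≠ 0 by omega)
    push_cast [Nat.cast_sub (Nat.one_le_pow (k + 1) _ Nat.card_pos)]
    rw [← hqdef]
    field_simp
    ring
  have hFN : Nat.card (Frame (B.restrict C) N) = 0 := by
    have h := card_frame_succ B (B.restrict C) e he N
    rw [hN] at h
    have h2 := (Nat.add_eq_zero_iff.mp h.symm).2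
    have : 1 < Nat.card F ^ (N + 1) := Nat.one_lt_pow (by omega) Finite.one_lt_card
    rcases Nat.mul_eq_zero.mp h2 with h3 | h3
    · omega
    · exact (Nat.mul_eq_zero.mp h3).resolve_left (pow_ne_zero _ Nat.card_pos.ne')
  rw [Finset.sum_range_succ', Finset.sum_congr rfl hstep, Finset.sum_range_sub]
  have h0 : ∀ {V : Type _} [AddCommGroup V] [Module F V] (b : BilinForm F V), Nat.card (Frame b 0) = 1 := fun b =>
    Nat.card_eq_one_iff_unique.mpr ⟨⟨fun L L' => Subtype.ext (LinearMap.ext fun x => by
      rw [Subsingleton.elim x 0, map_zero, map_zero])⟩, ⟨⟨0, fun x y _ => Subsingleton.elim x y, fun x y => by simp⟩⟩⟩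
  simp only [a]
  rw [hFN, h0 B, h0 (B.restrict C)]
  simp [qD]

end Cfsg.Agent.H2.SpUnipotent
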