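import Cfsg.Agent.H2.Stab
import Cfsg.Agent.H2.Basis
import Cfsg.Agent.H2.SpUnipotent.Frames

/-!
The number of elements of p-power order in Sp_2m(q).
-/

set_option autoImplicit false

namespace Cfsg.Agent.H2.SpUnipotent

open Matrix Finset
open LinearMap (BilinForm)

/-- Being a p-element. -/
def IsPU (p : ℕ) {G : Type*} [Monoid G] (g : G) : Prop := ∃ k : ℕ, g ^ p ^ k = 1

theorem isPU_map_iff {p : ℕ} {G H : Type*} [Monoid G] [Monoid H] (e : G ≃* H) (g : G) :
    IsPU p (e g) ↔ IsPU p g :=
  exists_congr fun k => by rw [← map_pow, e.map_eq_one_iff]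

theorem isPU_iff_orderOf {p : ℕ} [Fact p.Prime] {G : Type*} [Monoid G] (g : G) :
    IsPU p g ↔ ∃ k : ℕ, orderOf g = p ^ k := by
  constructor
  · rintro ⟨k, hk⟩
    obtain ⟨i, -, hi⟩ := (Nat.dvd_prime_pow Fact.out).mp (orderOf_dvd_of_pow_eq_one hk)
    exact ⟨i, hi⟩
  · rintro ⟨k, hk⟩
    exact ⟨k, hk ▸ pow_orderOf_eq_one g⟩

variable {F : Type*} [Field F] [Finite F] {p : ℕ} [Fact p.Prime] [CharP F p] {m : ℕ}

local notation "V" => (Fin m ⊕ Fin m → F)
local notation "SpG" => Matrix.symplecticGroup (Fin m) F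

/-- The p-elements fixing a tuple, in terms of the smaller group. -/
theorem card_pu_fixing {r : ℕ} (hr : r ≤ m) (x : IsotropicTuple m r F) :
    Nat.card {g : SpG // g • x.1 = x.1 ∧ IsPU p g} * Nat.card (Matrix.symplecticGroup (Fin (m - r)) F) =
      Nat.card {g : Matrix.symplecticGroup (Fin (m - r)) F // IsPU p g} *
        Nat.card (MulAction.stabilizer SpG x.1) := by
  classical
  set B := sympBilin m F with hBdef
  have hA : B.IsAlt := sympBilin_isAlt m F
  have hN : B.Nondegenerate := sympBilin_nondegenerate m F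
  set R : Submodule F V := Submodule.span F (Set.range x.1) with hR
  set O : Submodule F V := orth B R with hO
  have hRO : R ≤ O := Submodule.span_le.mpr fun v hv => by
    obtain ⟨i, rfl⟩ := hv
    exact (mem_orth_span_iff _ _).mpr fun j => x.2.2 j i
  obtain ⟨C₀, hC₀⟩ := Submodule.exists_isCompl R
  set C : Submodule F V := C₀ ⊓ O with hCdef
  have hsup : R ⊔ C = O := by
    rw [hCdef, ← sup_inf_assoc_of_le C₀ hRO, hC₀.sup_eq_top, top_inf_eq]
  have hinf : R ⊓ C = ⊥ := by
    rw [eq_bot_iff, hCdef]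
    exact (inf_le_inf_left R inf_le_left).trans hC₀.inf_eq_bot.le
  have hRO' : ∀ a ∈ R, ∀ b ∈ O, B a b = 0 := fun a ha b hb => hb a ha
  have horth : ∀ u, (∀ b ∈ O, B b u = 0) → u ∈ R := by
    intro u hu
    have : u ∈ orth B O := hu
    rwa [hO, orth_eq_orthogonal, orth_eq_orthogonal, LinearMap.BilinForm.orthogonal_orthogonal hN hA.isRefl] at this
  have hCnd : ∀ u ∈ C, (∀ v ∈ C, B u v = 0) → u = 0 := by
    intro u hu h
    refine (Submodule.mem_bot F).mp (hinf ▸ ⟨horth u fun b hb => ?_, hu⟩)
    rw [← hsup] at hb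
    obtain ⟨a, ha, c, hc, rfl⟩ := Submodule.mem_sup.mp hb
    have h' : B c u = 0 := by rw [← hA.neg_eq, h c hc, neg_zero]
    simp only [map_add, LinearMap.add_apply, hRO' a ha u hu.2, h', add_zero]
  have hc : IsCompl C (orth B C) := isCompl_orth B hA hCnd
  have hRC : R ≤ orth B C := fun a ha c hc' => by rw [← hA.neg_eq, hRO' a ha c hc'.2, neg_zero]
  have hdim : Module.finrank F C = 2 * (m - r) := by
    have h := Submodule.finrank_sup_add_finrank_inf_eq R C
    rw [hsup, hinf, finrank_bot, hO, hR, finrank_orth_span _ x.2.1, finrank_span_eq_card x.2.1,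
      Fintype.card_fin] at h
    omega
  set P : V →ₗ[F] C := Submodule.linearProjOfIsCompl C (orth B C) hc with hP
  have hPC : ∀ c : C, P (c : V) = c := fun c => Submodule.linearProjOfIsCompl_apply_left hc c
  have hPR : ∀ a ∈ R, P a = 0 := fun a ha => (Submodule.projectionOnto_apply_eq_zero_iff hc).mpr (hRC ha)
  set S := MulAction.stabilizer SpG x.1 with hS
  have hfix : ∀ (g : S), ∀ a ∈ R, spRho m F g.1 a = a := by
    intro g a ha
    induction ha using Submodule.span_induction with
    | mem z hz =>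
      obtain ⟨i, rfl⟩ := hz
      rw [spRho_apply, ← smul_eq_mulVec_sp]
      exact congrFun g.2 i
    | zero => exact map_zero _
    | add a b _ _ ha hb => rw [map_add, ha, hb]
    | smul c a _ ha => rw [map_smul, ha]
  have hgB : ∀ (g : SpG) u v, B (spRho m F g u) (spRho m F g v) = B u v := fun g u v => by simp [hBdef]
  have hdec : ∀ (g : S) (c : C), ∃ a ∈ R, spRho m F g.1 c = a + P (spRho m F g.1 c) := by
    intro g c
    have hgc : spRho m F g.1 c ∈ R ⊔ C := by
      rw [hsup]
      intro a ha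
      rw [← hfix g a ha, hgB]
      exact hRO' a ha c c.2.2
    obtain ⟨a, ha, d, hd, e⟩ := Submodule.mem_sup.mp hgc
    refine ⟨a, ha, ?_⟩
    rw [← e, map_add, hPR a ha, zero_add, hPC ⟨d, hd⟩]
  let f : S →* Module.End F C :=
    { toFun := fun g => P.comp ((spRho m F g.1).comp C.subtype)
      map_one' := LinearMap.ext fun c => by simp [hPC]
      map_mul' := fun g h => LinearMap.ext fun c => by
        obtain ⟨a, ha, e⟩ := hdec h c
        show P (spRho m F (g.1 * h.1) c) = P (spRho m F g.1 (P (spRho m F h.1 c) : V))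
        rw [map_mul, Module.End.mul_apply]
        conv_lhs => rw [e, map_add, map_add, hfix g a ha, hPR a ha, zero_add] }
  let f' : S →* (C ≃ₗ[F] C) :=
    (LinearMap.GeneralLinearGroup.generalLinearEquiv F C).toMonoidHom.comp f.toHomUnits
  have hf' : ∀ (g : S) (c : C), f' g c = P (spRho m F g.1 c) := fun g c => rfl
  let π : S →* isometries (B.restrict C) := f'.codRestrict _ fun g u v => by
    obtain ⟨a, ha, e⟩ := hdec g u
    obtain ⟨b, hb, e'⟩ := hdec g v
    show B (P (spRho m F g.1 u) : V) (P (spRho m F g.1 v) : V) = B (u : V) v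
    rw [← hgB g.1 (u : V) v]
    conv_rhs => rw [e, e']
    have h1 : B a (b + (P (spRho m F g.1 v) : V)) = 0 :=
      hRO' a ha _ (hsup ▸ Submodule.add_mem_sup hb (Subtype.coe_prop _))
    have h2 : B (P (spRho m F g.1 u) : V) b = 0 := by
      rw [← hA.neg_eq, hRO' b hb _ (Subtype.coe_prop (P (spRho m F g.1 u))).2, neg_zero]
    rw [map_add B, LinearMap.add_apply, h1, zero_add, map_add, h2, zero_add]
  have hπ : Function.Surjective π := by
    intro h
    let g := (spEquivIsometries m F).symm (extendIso B hA hc (h, 1))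
    have hg : ∀ v, spRho m F g v = (extendIso B hA hc (h, 1) : V ≃ₗ[F] V) v := fun v => by
      rw [spRho_apply, ← spEquivIsometries_apply, MulEquiv.apply_symm_apply]
    refine ⟨⟨g, MulAction.mem_stabilizer_iff.mpr (funext fun i => ?_)⟩,
      Subtype.ext (LinearEquiv.ext fun c => ?_)⟩
    · rw [Pi.smul_apply, smul_eq_mulVec_sp, ← spRho_apply, hg]
      exact (extendIso_right B hA hc (h, 1) ⟨_, hRC (Submodule.subset_span ⟨i, rfl⟩)⟩).trans (by simp)
    · show P (spRho m F g c) = _
      rw [hg, extendIso_left, hPC]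
  obtain ⟨e⟩ := isometries_equiv_sp (B.restrict C) (restrict_nondegenerate B hA hCnd) (fun u => hA _) hdim
  set ψ := e.toMonoidHom.comp π with hψ
  have hψs : Function.Surjective ψ := e.surjective.comp hπ
  haveI : Finite S := Subtype.finite
  let sec := Function.surjInv hψs
  have hcardS : Nat.card S = Nat.card (Matrix.symplecticGroup (Fin (m - r)) F) * Nat.card ψ.ker := by
    rw [← Nat.card_prod]
    exact Nat.card_congr
      { toFun := fun g => (ψ g, ⟨(sec (ψ g))⁻¹ * g, by simp [MonoidHom.mem_ker, sec, Function.surjInv_eq hψs]⟩)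
        invFun := fun y => sec y.1 * y.2.1
        left_inv := fun g => by simp
        right_inv := fun y => by
          have h1 : ψ (sec y.1 * y.2.1) = y.1 := by
            rw [map_mul, MonoidHom.mem_ker.mp y.2.2, mul_one]; exact Function.surjInv_eq hψs _
          refine Prod.ext h1 (Subtype.ext ?_)
          show (sec (ψ (sec y.1 * y.2.1)))⁻¹ * (sec y.1 * y.2.1) = _
          rw [h1, inv_mul_cancel_left] }
  obtain ⟨N, hker⟩ : ∃ N, Nat.card ψ.ker = p ^ N := by
    cases nonempty_fintype F
    obtain ⟨a, -, ha⟩ := FiniteField.card F p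
    refine ⟨a * (r * (r + 1) / 2 + 2 * r * (m - r)), ?_⟩
    have h := card_stabilizer_isotropic hr x
    rw [← hS, hcardS, ← card_sp] at h
    rw [Nat.eq_of_mul_eq_mul_left Nat.card_pos h, Nat.card_eq_fintype_card, ha, ← pow_mul]
  have hiff : ∀ g : S, IsPU p g.1 ↔ IsPU p (ψ g) := by
    intro g
    constructor
    · rintro ⟨k, hk⟩
      exact ⟨k, by rw [← map_pow, show g ^ p ^ k = 1 from Subtype.ext hk, map_one]⟩
    · rintro ⟨k, hk⟩
      refine ⟨k + N, ?_⟩
      have h : (⟨g ^ p ^ k, by rw [MonoidHom.mem_ker, map_pow, hk]⟩ : ψ.ker) ^ p ^ N = 1 :=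
        hker ▸ pow_card_eq_one'
      have h' := congrArg (fun y : ψ.ker => ((y : S) : SpG)) h
      simp only [SubmonoidClass.coe_pow, OneMemClass.coe_one] at h'
      rw [pow_add, pow_mul]
      exact h'
  have hL : Nat.card {g : SpG // g • x.1 = x.1 ∧ IsPU p g} =
      Nat.card {g : Matrix.symplecticGroup (Fin (m - r)) F // IsPU p g} * Nat.card ψ.ker := by
    rw [← Nat.card_prod]
    exact Nat.card_congr
      { toFun := fun g => (⟨ψ ⟨g.1, g.2.1⟩, (hiff ⟨g.1, g.2.1⟩).mp g.2.2⟩,
          ⟨(sec (ψ ⟨g.1, g.2.1⟩))⁻¹ * ⟨g.1, g.2.1⟩, by simp [MonoidHom.mem_ker, sec, Function.surjInv_eq hψs]⟩)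
        invFun := fun y => ⟨(sec y.1.1 * y.2.1 : S), (sec y.1.1 * y.2.1 : S).2, (hiff _).mpr (by
          rw [map_mul, MonoidHom.mem_ker.mp y.2.2, mul_one, Function.surjInv_eq hψs]; exact y.1.2)⟩
        left_inv := fun g => by simp
        right_inv := fun y => by
          have h1 : ψ (sec y.1.1 * y.2.1) = y.1.1 := by
            rw [map_mul, MonoidHom.mem_ker.mp y.2.2, mul_one]; exact Function.surjInv_eq hψs _
          refine Prod.ext (Subtype.ext h1) (Subtype.ext ?_)
          show (sec (ψ (sec y.1.1 * y.2.1)))⁻¹ * (sec y.1.1 * y.2.1) = _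
          rw [h1, inv_mul_cancel_left] }
  rw [hL, hcardS]
  ring

/-- Fixed tuples are frames of the fixed space. -/
theorem card_fixed_tuples (g : SpG) (r : ℕ) :
    Nat.card {x : IsotropicTuple m r F // g • x.1 = x.1} =
      Nat.card (Frame ((sympBilin m F).restrict (LinearMap.ker (spRho m F g - 1))) r) := by
  classical
  set W := LinearMap.ker (spRho m F g - 1) with hW
  have hmem : ∀ v, v ∈ W ↔ g • v = v := fun v => by
    simp [hW, LinearMap.mem_ker, sub_eq_zero, smul_eq_mulVec_sp]
  have hL : ∀ (t : Fin r → W) v, ((Fintype.linearCombination F t v : W) : V) =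
      Fintype.linearCombination F (fun i => (t i : V)) v := fun t v => by
    simp [Fintype.linearCombination_apply]
  refine Nat.card_congr
    { toFun := fun x => ⟨Fintype.linearCombination F fun i => (⟨x.1.1 i, (hmem _).mpr (congrFun x.2 i)⟩ : W), ?_⟩
      invFun := fun L => ⟨⟨fun i => ((L.1 (Pi.single i 1) : W) : V), ?_, fun i j => ?_⟩, ?_⟩
      left_inv := fun x => ?_
      right_inv := fun L => ?_ }
  · refine ⟨fun u v h => ?_, fun u v => ?_⟩
    · have h' := congrArg Subtype.val h
      rw [hL, hL] at h'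
      exact Fintype.linearIndependent_iffₛ.mp x.1.2.1 u v (by simpa [Fintype.linearCombination_apply] using h') |> funext
    · show sympBilin m F ((Fintype.linearCombination F _ u : W) : V) ((Fintype.linearCombination F _ v : W) : V) = 0
      rw [hL, hL]
      simp [Fintype.linearCombination_apply, map_sum, LinearMap.sum_apply, x.1.2.2]
  · refine Fintype.linearIndependent_iff.mpr fun c hc => ?_
    have h0 : L.1 c = L.1 0 := by
      rw [map_zero, pi_eq_sum_univ' c, map_sum]
      exact Subtype.ext (by simpa [map_smul] using hc)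
    exact congrFun (L.2.1 h0)
  · simpa using L.2.2 (Pi.single i 1) (Pi.single j 1)
  · funext i
    exact (hmem _).mp (Subtype.coe_prop (L.1 (Pi.single i 1)))
  · refine Subtype.ext (Subtype.ext (funext fun i => ?_))
    simp [hL]
  · refine Subtype.ext ((Pi.basisFun F (Fin r)).ext fun i => Subtype.ext ?_)
    simp [hL]

/-- The fixed space of a non-trivial p-element has a radical. -/
theorem exists_radical_fixed {g : SpG} (hg : IsPU p g) (hg1 : g ≠ 1) :
    ∃ z ∈ LinearMap.ker (spRho m F g - 1), z ≠ 0 ∧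
      ∀ w ∈ LinearMap.ker (spRho m F g - 1), sympBilin m F z w = 0 := by
  classical
  obtain ⟨k, hk⟩ := hg
  set T := spRho m F g with hT
  have hne : Nonempty (Fin m ⊕ Fin m) := by
    by_contra h
    rw [not_nonempty_iff] at h
    exact hg1 (ext_of_mulVec fun v => Subsingleton.elim _ _)
  haveI : CharP (Module.End F V) p := charP_of_injective_algebraMap (algebraMap F (Module.End F V)).injective p
  have hnil : (T - 1) ^ p ^ k = 0 := by
    rw [sub_pow_char_pow_of_commute p k (Commute.one_right T), one_pow, hT, ← map_pow, hk, map_one, sub_self]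
  have hT1 : T - 1 ≠ 0 := fun h => hg1 (ext_of_mulVec fun v => by
    have := LinearMap.congr_fun (sub_eq_zero.mp h) v
    simpa [hT] using this)
  have hex : ∃ i, (T - 1) ^ (i + 1) = 0 := ⟨p ^ k, by rw [pow_succ, hnil, zero_mul]⟩
  obtain ⟨j, hj, hjmin⟩ : ∃ j, (T - 1) ^ (j + 1) = 0 ∧ ∀ i < j, (T - 1) ^ (i + 1) ≠ 0 :=
    ⟨Nat.find hex, Nat.find_spec hex, fun i hi => Nat.find_min hex hi⟩
  obtain ⟨i, rfl⟩ : ∃ i, j = i + 1 := Nat.exists_eq_succ_of_ne_zero (fun h => hT1 (by simpa [h] using hj))
  obtain ⟨y, hy⟩ : ∃ y, ((T - 1) ^ (i + 1)) y ≠ 0 := by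
    by_contra! h
    exact hjmin i (by omega) (LinearMap.ext h)
  refine ⟨_, ?_, hy, fun w hw => ?_⟩
  · rw [LinearMap.mem_ker, ← Module.End.mul_apply, ← pow_succ', hj]; rfl
  · rw [pow_succ', Module.End.mul_apply]
    set y' := ((T - 1) ^ i) y
    have hw' : T w = w := by simpa [sub_eq_zero] using hw
    have h : sympBilin m F (T y') (T w) = sympBilin m F y' w := by simp [hT]
    rw [hw'] at h
    simp [map_sub, LinearMap.sub_apply, -sympBilin_apply, h]

/-- The normalised count satisfies a convolution equation. -/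
theorem sum_normalised (p : ℕ) [Fact p.Prime] [CharP F p] (m : ℕ) :
    ∑ r ∈ range (m + 1),
      ((Nat.card {g : Matrix.symplecticGroup (Fin (m - r)) F // IsPU p g} : ℚ) /
        Nat.card (Matrix.symplecticGroup (Fin (m - r)) F)) *
      Nat.card (Matrix.symplecticGroup (Fin m) F) / qD (Nat.card F) r =
      (-1) ^ m * (Nat.card F : ℚ) ^ (m * m) := by
  classical
  cases nonempty_fintype F
  haveI : ∀ (r : ℕ), Fintype (IsotropicTuple m r F) := fun r => Fintype.ofFinite _
  haveI : Fintype {g : Matrix.symplecticGroup (Fin m) F // IsPU p g} := Fintype.ofFinite _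
  have hq : (1 : ℚ) < Nat.card F := by exact_mod_cast Finite.one_lt_card
  -- double counting
  have hswap : ∀ r, ∑ g : {g : Matrix.symplecticGroup (Fin m) F // IsPU p g},
      (Nat.card {x : IsotropicTuple m r F // g.1 • x.1 = x.1} : ℚ) =
      ∑ x : IsotropicTuple m r F, (Nat.card {g : Matrix.symplecticGroup (Fin m) F // g • x.1 = x.1 ∧ IsPU p g} : ℚ) := by
    intro r
    rw [← Nat.cast_sum, ← Nat.cast_sum, Nat.cast_inj, ← Nat.card_sigma, ← Nat.card_sigma]
    exact Nat.card_congr
      { toFun := fun y => ⟨y.2.1, y.1.1, y.2.2, y.1.2⟩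
        invFun := fun y => ⟨⟨y.2.1, y.2.2.2⟩, y.1, y.2.2.1⟩
        left_inv := fun y => rfl
        right_inv := fun y => rfl }
  have hterm : ∀ r ∈ range (m + 1),
      ((Nat.card {g : Matrix.symplecticGroup (Fin (m - r)) F // IsPU p g} : ℚ) /
        Nat.card (Matrix.symplecticGroup (Fin (m - r)) F)) *
        Nat.card (Matrix.symplecticGroup (Fin m) F) / qD (Nat.card F) r =
      (∑ g : {g : Matrix.symplecticGroup (Fin m) F // IsPU p g},
        (Nat.card {x : IsotropicTuple m r F // g.1 • x.1 = x.1} : ℚ)) / qD (Nat.card F) r := by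
    intro r hr
    rw [hswap]
    congr 1
    have hr' : r ≤ m := by simpa using hr
    obtain ⟨x₀⟩ : Nonempty (IsotropicTuple m r F) := by
      rw [← Fintype.card_pos_iff, ← Nat.card_eq_fintype_card, card_isotropicTuple]
      refine prod_pos fun i hi => Nat.sub_pos_of_lt (Nat.pow_lt_pow_right Finite.one_lt_card ?_)
      have := mem_range.mp hi
      omega
    have hs : (Nat.card (Matrix.symplecticGroup (Fin (m - r)) F) : ℚ) ≠ 0 := by exact_mod_cast Nat.card_pos.ne'
    have hx : ∀ x : IsotropicTuple m r F,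
        (Nat.card {g : Matrix.symplecticGroup (Fin m) F // g • x.1 = x.1 ∧ IsPU p g} : ℚ) =
        (Nat.card {g : Matrix.symplecticGroup (Fin (m - r)) F // IsPU p g} : ℚ) *
          Nat.card (MulAction.stabilizer (Matrix.symplecticGroup (Fin m) F) x₀.1) /
          Nat.card (Matrix.symplecticGroup (Fin (m - r)) F) := by
      intro x
      rw [eq_div_iff hs]
      have h := card_pu_fixing (p := p) hr' x
      rw [card_stabilizer_isotropic hr' x, ← card_stabilizer_isotropic hr' x₀] at h
      exact_mod_cast h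
    rw [sum_congr rfl fun x _ => hx x, sum_const, nsmul_eq_mul, card_univ]
    have horb : Nat.card (MulAction.orbit (Matrix.symplecticGroup (Fin m) F) x₀.1) =
        Fintype.card (IsotropicTuple m r F) := by
      rw [← Nat.card_eq_fintype_card]
      exact Nat.card_congr (Equiv.subtypeEquivRight fun y => by
        rw [mem_orbit_tuple_iff _ _ x₀.2.1]; simp [x₀.2.2])
    rw [card_eq_orbit_mul_stabilizer (G := Matrix.symplecticGroup (Fin m) F) x₀.1, horb, Nat.cast_mul]
    ring
  rw [sum_congr rfl hterm]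
  simp only [sum_div]
  rw [sum_comm, sum_eq_single ⟨1, 0, one_pow _⟩]
  · have hall : ∀ r, Nat.card {x : IsotropicTuple m r F // (1 : Matrix.symplecticGroup (Fin m) F) • x.1 = x.1} =
        ∏ i ∈ range r, (Nat.card F ^ (2 * m - i) - Nat.card F ^ i) := fun r => by
      rw [← card_isotropicTuple m r]
      exact Nat.card_congr (Equiv.subtypeUnivEquiv fun x => one_smul _ _)
    rw [← sum_isotropic hq m]
    refine sum_congr rfl fun r hr => ?_
    rw [hall, Nat.cast_prod]
    congr 1
    refine prod_congr rfl fun i hi => ?_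
    have hr' := mem_range.mp hr
    have hi' := mem_range.mp hi
    rw [Nat.cast_sub (Nat.pow_le_pow_right Nat.card_pos (by omega)), Nat.cast_pow, Nat.cast_pow]
  · intro g _ hg
    have hg1 : g.1 ≠ 1 := fun h => hg (Subtype.ext h)
    obtain ⟨z, hz, hz0, hrad⟩ := exists_radical_fixed g.2 hg1
    simp only [card_fixed_tuples]
    refine sum_frames_eq_zero ((sympBilin m F).restrict (LinearMap.ker (spRho m F g.1 - 1)))
      (fun v => sympBilin_isAlt m F _) (z := (⟨z, hz⟩ : LinearMap.ker (spRho m F g.1 - 1)))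
      (fun h => hz0 (congrArg Subtype.val h)) (fun w => hrad w w.2) ?_
    rw [← card_fixed_tuples, Nat.card_eq_zero]
    left
    refine ⟨fun x => ?_⟩
    have h : Nat.card (IsotropicTuple m (m + 1) F) = 0 := by
      rw [card_isotropicTuple, prod_range_succ, show 2 * m - m = m by omega, Nat.sub_self, mul_zero]
    exact (@Nat.card_pos (IsotropicTuple m (m + 1) F) ⟨x.1⟩ inferInstance).ne' h
  · exact fun h => absurd (mem_univ _) h

/-- Steinberg's count for the symplectic group. -/
theorem card_pu (p : ℕ) [Fact p.Prime] [CharP F p] (m : ℕ) :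
    Nat.card {g : Matrix.symplecticGroup (Fin m) F // IsPU p g} = Nat.card F ^ (2 * m ^ 2) := by
  have hq : (1 : ℚ) < Nat.card F := by exact_mod_cast Finite.one_lt_card
  set q : ℚ := (Nat.card F : ℚ) with hqdef
  have hs : ∀ j, (Nat.card (Matrix.symplecticGroup (Fin j) F) : ℚ) = q ^ (j * j) * ((-1) ^ j * qP q j) := by
    intro j
    rw [card_sp, Nat.cast_mul, Nat.cast_pow, sq, Nat.cast_prod, qP, ← hqdef]
    congr 1
    rw [show ((-1 : ℚ)) ^ j = ∏ _i ∈ range j, (-1 : ℚ) by simp, ← prod_mul_distrib]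
    refine prod_congr rfl fun i _ => ?_
    rw [Nat.cast_sub (Nat.one_le_pow _ _ Nat.card_pos), Nat.cast_pow, Nat.cast_one, ← hqdef]
    ring
  have hne : ∀ j, (Nat.card (Matrix.symplecticGroup (Fin j) F) : ℚ) ≠ 0 := fun j => by
    exact_mod_cast Nat.card_pos.ne'
  let u : ℕ → ℚ := fun j => (Nat.card {g : Matrix.symplecticGroup (Fin j) F // IsPU p g} : ℚ) /
    Nat.card (Matrix.symplecticGroup (Fin j) F)
  have hu : ∀ j, u j = (-1) ^ j * q ^ (j * j) / qP q j := by
    intro j
    induction j using Nat.strong_induction_on with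
    | _ j ih =>
      have h := sum_normalised (F := F) p j
      rw [← hqdef] at h
      change ∑ r ∈ range (j + 1), u (j - r) * _ / qD q r = _ at h
      have hI := sum_identity hq j
      rw [← sum_range_reflect] at h
      simp only [Nat.add_sub_cancel] at h
      rw [sum_range_succ] at h hI
      rw [Nat.sub_self, Nat.sub_zero, hs j] at h
      have hA : ∑ i ∈ range j, u (j - (j - i)) * (q ^ (j * j) * ((-1) ^ j * qP q j)) / qD q (j - i) =
          q ^ (j * j) * (-1) ^ j * ∑ i ∈ range j, (-1) ^ i * q ^ (i * i) * qP q j / (qP q i * qD q (j - i)) := by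
        rw [mul_sum]
        refine sum_congr rfl fun i hi => ?_
        have hi' := mem_range.mp hi
        rw [show j - (j - i) = i by omega, ih i hi']
        field_simp
      rw [hA] at h
      have hD : qD q 0 = 1 := by simp [qD]
      rw [Nat.sub_self, hD, mul_one] at hI
      rw [hD, div_one] at h
      have hqp := qP_ne hq j
      have hqq : q ^ (j * j) ≠ 0 := pow_ne_zero _ (by positivity)
      rw [eq_div_iff hqp]
      have hsq : ((-1 : ℚ) ^ j) * (-1) ^ j = 1 := by rw [← mul_pow]; simp
      field_simp at hI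
      generalize hX : ∑ i ∈ range j, (-1 : ℚ) ^ i * q ^ (i * i) * qP q j / (qP q i * qD q (j - i)) = X at h hI
      have h2 : X + u j * qP q j = 1 := by
        have : q ^ (j * j) * (-1) ^ j ≠ 0 := mul_ne_zero hqq (pow_ne_zero _ (by norm_num))
        apply mul_left_cancel₀ this
        linear_combination h
      linarith
  have h := hu m
  simp only [u] at h
  rw [div_eq_iff (hne m), hs] at h
  have hqp := qP_ne hq m
  have h2 : (Nat.card {g : Matrix.symplecticGroup (Fin m) F // IsPU p g} : ℚ) = q ^ (2 * m ^ 2) := by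
    rw [h, show 2 * m ^ 2 = m * m + m * m by ring, pow_add]
    field_simp
    rw [← pow_mul, mul_comm m 2, pow_mul]
    simp
  rw [hqdef] at h2
  exact_mod_cast h2

end Cfsg.Agent.H2.SpUnipotent
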