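import Mathlib

/-!
The two q-series identities behind the count of unipotent symplectic elements.
-/

set_option autoImplicit false

namespace Cfsg.Agent.H2.SpUnipotent

open Finset

/-- `∏_{i ≤ r} (1 - q^i)`. -/
def qD (q : ℚ) (r : ℕ) : ℚ := ∏ i ∈ range r, (1 - q ^ (i + 1))

/-- `∏_{i ≤ m} (1 - q^(2i))`. -/
def qP (q : ℚ) (m : ℕ) : ℚ := ∏ i ∈ range m, (1 - q ^ (2 * (i + 1)))

theorem one_sub_pow_ne {q : ℚ} (hq : 1 < q) {k : ℕ} (hk : k ≠ 0) : 1 - q ^ k ≠ 0 :=
  sub_ne_zero.mpr (one_lt_pow₀ hq hk).ne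

theorem qD_ne {q : ℚ} (hq : 1 < q) (r : ℕ) : qD q r ≠ 0 :=
  prod_ne_zero_iff.mpr fun i _ => one_sub_pow_ne hq (by omega)

theorem qP_ne {q : ℚ} (hq : 1 < q) (r : ℕ) : qP q r ≠ 0 :=
  prod_ne_zero_iff.mpr fun i _ => one_sub_pow_ne hq (by omega)

theorem qD_succ (q : ℚ) (r : ℕ) : qD q (r + 1) = qD q r * (1 - q ^ (r + 1)) := prod_range_succ _ _

theorem qP_succ (q : ℚ) (r : ℕ) : qP q (r + 1) = qP q r * (1 - q ^ (2 * (r + 1))) := prod_range_succ _ _

/-- The main q-series identity. -/
theorem sum_identity {q : ℚ} (hq : 1 < q) (m : ℕ) :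
    ∑ j ∈ range (m + 1), (-1) ^ j * q ^ (j * j) * qP q m / (qP q j * qD q (m - j)) = 1 := by
  induction m with
  | zero => simp [qP, qD]
  | succ m ih =>
    let b : ℕ → ℚ := fun j =>
      (-1) ^ (j + 1) * q ^ (j * (j - 1) + (m + 1)) * (1 - q ^ (2 * j)) * qP q m / (qP q j * qD q (m + 1 - j))
    have hstep : ∀ j ∈ range (m + 1),
        (-1) ^ j * q ^ (j * j) * qP q (m + 1) / (qP q j * qD q (m + 1 - j)) -
          (-1) ^ j * q ^ (j * j) * qP q m / (qP q j * qD q (m - j)) = b (j + 1) - b j := by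
      intro j hj
      obtain ⟨d, rfl⟩ : ∃ d, m = j + d := ⟨m - j, by have := mem_range.mp hj; omega⟩
      simp only [b]
      rw [show j + d + 1 - j = d + 1 by omega, show j + d - j = d by omega,
        show j + d + 1 - (j + 1) = d by omega, qD_succ, qP_succ q (j + d), qP_succ q j,
        show (j + 1) * (j + 1 - 1) = j * j + j by rw [Nat.add_sub_cancel]; ring]
      have hjj : j * j = j * (j - 1) + j := by
        cases j with
        | zero => rfl
        | succ i => rw [Nat.add_sub_cancel]; ring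
      have h1 := qP_ne hq j
      have h2 := qD_ne hq d
      have h3 := one_sub_pow_ne hq (show d + 1 ≠ 0 by omega)
      have h4 := one_sub_pow_ne hq (show 2 * (j + 1) ≠ 0 by omega)
      rw [hjj]
      simp only [pow_add, pow_succ] at *
      field_simp
      ring
    have h := sum_congr rfl hstep
    rw [sum_sub_distrib, ih, sum_range_sub] at h
    rw [sum_range_succ]
    have hb0 : b 0 = 0 := by simp [b]
    have hbl : b (m + 1) =
        1 * -((-1) ^ (m + 1) * q ^ ((m + 1) * (m + 1)) * qP q (m + 1) / (qP q (m + 1) * qD q (m + 1 - (m + 1)))) := by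
      simp only [b]
      rw [Nat.add_sub_cancel, Nat.sub_self, show (m + 1) * m + (m + 1) = (m + 1) * (m + 1) by ring, qP_succ]
      ring
    rw [hbl, hb0] at h
    linarith

/-- The alternating sum over totally isotropic tuples. -/
theorem sum_isotropic {q : ℚ} (hq : 1 < q) (m : ℕ) :
    ∑ r ∈ range (m + 1), (∏ i ∈ range r, (q ^ (2 * m - i) - q ^ i)) / qD q r = (-1) ^ m * q ^ (m * m) := by
  induction m with
  | zero => simp [qD]
  | succ m ih =>
    let T : ℕ → ℕ → ℚ := fun M k => ∏ i ∈ range k, (q ^ (2 * M - i) - q ^ i)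
    let a : ℕ → ℚ := fun k => q ^ k * T m k / qD q k
    have hshift : ∀ k, k ≤ m + 1 → T (m + 1) k * (q ^ (2 * m + 2 - k) - q ^ k) =
        (q ^ (2 * m + 2) - 1) * q ^ k * T m k := by
      intro k hk
      induction k with
      | zero => simp [T]
      | succ k ihk =>
        simp only [T, prod_range_succ]
        simp only [T] at ihk
        rw [show 2 * (m + 1) - k = 2 * m + 2 - k by omega, ihk (by omega)]
        rw [show 2 * m + 2 - (k + 1) = 2 * m - k + 1 by omega]
        ring
    have hstep : ∀ k ∈ range (m + 1), T (m + 1) (k + 1) / qD q (k + 1) =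
        a (k + 1) - a k - q ^ (2 * m + 1) * (T m k / qD q k) := by
      intro k hk
      have hk' := mem_range.mp hk
      have h1 : T (m + 1) (k + 1) = T (m + 1) k * (q ^ (2 * m + 2 - k) - q ^ k) := by
        simp only [T, prod_range_succ]
        rw [show 2 * (m + 1) = 2 * m + 2 by ring]
      have h2 : T m (k + 1) = T m k * (q ^ (2 * m - k) - q ^ k) := prod_range_succ _ _
      simp only [a]
      rw [h1, hshift k (by omega), h2, qD_succ]
      have h3 := qD_ne hq k
      have h4 := one_sub_pow_ne hq (show k + 1 ≠ 0 by omega)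
      obtain ⟨d, hd⟩ : ∃ d, 2 * m = k + d := ⟨2 * m - k, by omega⟩
      rw [hd, Nat.add_sub_cancel_left]
      field_simp
      ring
    have hlast : T m (m + 1) = 0 := by
      simp only [T, prod_range_succ]
      rw [show 2 * m - m = m by omega, sub_self, mul_zero]
    have h := sum_congr rfl hstep
    rw [sum_sub_distrib, sum_range_sub, ← mul_sum, ih] at h
    rw [sum_range_succ', h]
    simp [a, T, qD] at hlast ⊢
    rw [hlast]
    ring

end Cfsg.Agent.H2.SpUnipotent
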